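import Mathlib
import Cfsg.Agent.Conj.Eig

/-!
Counting classes of elements of prime order in projective groups.
-/

set_option autoImplicit false
set_option backward.isDefEq.respectTransparency false

namespace Cfsg.Agent.Conj

open Module Polynomial
open scoped _root_.Classical

theorem card_quot_eq {X Y : Type*} (s : Setoid X) (f : X → Y) (h : ∀ a b, f a = f b ↔ s a b)
    (P : Y → Prop) (hP : ∀ y, P y ↔ ∃ a, f a = y) :
    Nat.card (Quotient s) = Nat.card {y // P y} := by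
  refine Nat.card_eq_of_bijective (Quotient.lift (fun a => ⟨f a, (hP _).2 ⟨a, rfl⟩⟩)
    fun a b hab => Subtype.ext ((h a b).2 hab)) ⟨?_, ?_⟩
  · rintro ⟨a⟩ ⟨b⟩ hab
    exact Quotient.sound ((h a b).1 (congrArg Subtype.val hab))
  · rintro ⟨y, hy⟩
    obtain ⟨a, rfl⟩ := (hP y).1 hy
    exact ⟨Quotient.mk _ a, rfl⟩

variable {r : ℕ} [hr : Fact r.Prime]

theorem tr_iff {k : ZMod r} (hk : k ≠ 0) (μ : ZMod r → ℕ) :
    (∀ a, μ (a + k) = μ a) ↔ ∀ a, μ a = μ 0 := by
  refine ⟨fun h a => ?_, fun h a => by rw [h, h a]⟩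
  have : ∀ j : ℕ, μ (j * k) = μ 0 := by
    intro j
    induction j with
    | zero => simp
    | succ j ih => rw [Nat.cast_succ, add_mul, one_mul, h, ih]
  rw [← this (a / k).val, ZMod.natCast_zmod_val, div_mul_cancel₀ _ hk]

theorem card_const (n : ℕ) :
    Nat.card {μ : ZMod r → ℕ // ∑ a, μ a = n ∧ ∀ a, μ a = μ 0} = if r ∣ n then 1 else 0 := by
  have key : ∀ μ : ZMod r → ℕ, (∀ a, μ a = μ 0) → ∑ a, μ a = r * μ 0 := fun μ h => by
    rw [Finset.sum_congr rfl fun a _ => h a]; simp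
  split_ifs with h
  · obtain ⟨k, rfl⟩ := h
    refine Nat.card_eq_one_iff_unique.2 ⟨⟨fun a b => Subtype.ext (funext fun x => ?_)⟩,
      ⟨fun _ => k, by simp, fun _ => rfl⟩⟩
    rw [a.2.2, b.2.2]
    exact Nat.eq_of_mul_eq_mul_left hr.out.pos (by rw [← key _ a.2.2, ← key _ b.2.2, a.2.1, b.2.1])
  · have : IsEmpty {μ : ZMod r → ℕ // ∑ a, μ a = n ∧ ∀ a, μ a = μ 0} :=
      ⟨fun μ => h ⟨_, by rw [← key _ μ.2.2, μ.2.1]⟩⟩
    exact Nat.card_of_isEmpty

variable {L : Type*} [Field L] {ζ : L} (hζ : IsPrimitiveRoot ζ r)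
include hζ

theorem card_multiset_eq {w : L} (hw : w ≠ 0) (n : ℕ) (P : Multiset L → Prop)
    (R : (ZMod r → ℕ) → Prop) (h : ∀ M, (∀ z ∈ M, z ^ r = w ^ r) → (P M ↔ R (cnt ζ w M))) :
    Nat.card {M : Multiset L // (M.card = n ∧ ∀ z ∈ M, z ^ r = w ^ r) ∧ P M} =
      Nat.card {μ : ZMod r → ℕ // ∑ a, μ a = n ∧ R μ} := by
  refine Nat.card_eq_of_bijective (fun M => ⟨cnt ζ w M.1, by
    rw [sum_cnt hζ hw M.2.1.2, M.2.1.1, ← h _ M.2.1.2]; exact ⟨rfl, M.2.2⟩⟩)
    ⟨fun a b hab => Subtype.ext (cnt_inj hζ hw a.2.1.2 b.2.1.2 (Subtype.mk.inj hab)), ?_⟩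
  rintro ⟨μ, h1, h2⟩
  obtain ⟨M, hM, rfl⟩ := exists_cnt hζ hw μ
  exact ⟨⟨M, ⟨by rw [← h1, sum_cnt hζ hw hM], hM⟩, (h M hM).2 h2⟩, rfl⟩

theorem map_mul_iff {w η : L} (hw : w ≠ 0) (hη : η ^ r = 1) (h1 : η ≠ 1) {M : Multiset L}
    (hM : ∀ z ∈ M, z ^ r = w ^ r) :
    M.map (η * ·) = M ↔ ∀ a : ZMod r, cnt ζ w M a = cnt ζ w M (0 : ZMod r) := by
  obtain ⟨k, rfl⟩ := exists_ez hζ one_ne_zero (w := 1) (z := η) (by rw [hη, one_pow])
  rw [one_mul] at hη h1 ⊢
  rw [← tr_iff (k := k) (by rintro rfl; exact h1 ez_zero)]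
  exact map_eq_iff_cnt hζ hw hM (mul_right_injective₀ (by rintro h; simp [h, hr.out.ne_zero] at hη))
    (add_right_surjective k) fun a => by rw [ez_add hζ]; ring

theorem card_multiset_two {w η η' : L} (hw : w ≠ 0) (hη : η ^ r = 1) (hη' : η' ^ r = 1) (n : ℕ) :
    Nat.card {M : Multiset L // (M.card = n ∧ ∀ z ∈ M, z ^ r = w ^ r) ∧
      M.map (η * ·) = M ∧ M.map (η' * ·) = M} =
      if η = 1 ∧ η' = 1 then (n + r - 1).choose (r - 1) else if r ∣ n then 1 else 0 := by
  by_cases h : η = 1 ∧ η' = 1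
  · rw [if_pos h, card_multiset_eq hζ hw n _ (fun _ => True) (by simp [h.1, h.2])]
    simp only [and_true]
    have := hr.out.pos
    rw [card_fun_sum, ZMod.card, add_comm, Nat.choose_symm_of_eq_add (b := r - 1) (by omega)]
  · rw [if_neg h, ← card_const, card_multiset_eq hζ hw n]
    intro M hM
    by_cases h1 : η = 1
    · rw [map_mul_iff hζ hw hη' (fun h2 => h ⟨h1, h2⟩) hM]
      simp [h1]
    · by_cases h2 : η' = 1
      · rw [map_mul_iff hζ hw hη h1 hM]
        simp [h2]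
      · rw [map_mul_iff hζ hw hη h1 hM, map_mul_iff hζ hw hη' h2 hM, and_self]

omit hζ
variable {Z : Type*} [CommGroup Z] (φ : Z →* L) (r) (N n : ℕ)

/-- the parameter set -/
def PX : Type _ := {p : Z × Multiset L // (p.2.card = n ∧ ∀ z ∈ p.2, z ^ r = φ p.1) ∧
  p.2.map (φ (p.1 ^ (N / r)) * ·) = p.2}

variable {r N} in
/-- the action on the parameter set -/
@[reducible] def actPX (hN : ∀ z : Z, z ^ N = 1) (hrN : r ∣ N) : MulAction Z (PX r φ N n) where
  smul z p := ⟨(z ^ r * p.1.1, p.1.2.map (φ z * ·)), ⟨by simp [p.2.1.1], fun y hy => by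
    obtain ⟨y, hy', rfl⟩ := Multiset.mem_map.1 hy
    rw [mul_pow, p.2.1.2 y hy', map_mul, map_pow]⟩, by
    rw [mul_pow, ← pow_mul, Nat.mul_div_cancel' hrN, hN, one_mul]
    conv_rhs => rw [← p.2.2]
    rw [Multiset.map_map, Multiset.map_map]
    exact Multiset.map_congr rfl fun _ _ => mul_left_comm _ _ _⟩
  one_smul p := Subtype.ext (Prod.ext (by change 1 ^ r * p.1.1 = _; simp)
    (by change p.1.2.map (φ 1 * ·) = _; simp))
  mul_smul a b p := Subtype.ext (Prod.ext
    (by change (a * b) ^ r * p.1.1 = a ^ r * (b ^ r * p.1.1); rw [mul_pow, mul_assoc])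
    (by change p.1.2.map (φ (a * b) * ·) = (p.1.2.map (φ b * ·)).map (φ a * ·)
        simp [mul_assoc]))

variable {r N}
include hζ

theorem card_orbits_PX [IsAlgClosed L] [Finite Z] [IsCyclic Z] (hφ : Function.Injective φ)
    (hN : Nat.card Z = N) (hrN : r ∣ N) [Finite (PX r φ N n)] :
    letI := actPX φ n (fun z => hN ▸ pow_card_eq_one') hrN
    r * Nat.card (MulAction.orbitRel.Quotient Z (PX r φ N n)) =
      (n + r - 1).choose (r - 1) + (r ^ 2 - 1) * if r ∣ n then 1 else 0 := by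
  letI := actPX φ n (fun z => hN ▸ pow_card_eq_one') hrN
  have := Fintype.ofFinite Z
  have := Fintype.ofFinite (PX r φ N n)
  have h1 := MulAction.sum_card_fixedBy_eq_card_orbits_mul_card_group Z (PX r φ N n)
  have h2 : ∀ z : Z, Fintype.card (MulAction.fixedBy (PX r φ N n) z) =
      if z ^ r = 1 then ∑ c : Z, if c ^ (N / r) = 1 ∧ z = 1 then (n + r - 1).choose (r - 1) else
        if r ∣ n then 1 else 0 else 0 := by
    intro z
    by_cases hz : z ^ r = 1
    · rw [if_pos hz]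
      have : ∀ c : Z, Finite {M : Multiset L //
          (M.card = n ∧ ∀ y ∈ M, y ^ r = φ c) ∧ M.map (φ (c ^ (N / r)) * ·) = M ∧
          M.map (φ z * ·) = M} := fun c => Finite.of_injective (β := PX r φ N n)
            (fun M => ⟨(c, M.1), M.2.1, M.2.2.1⟩) fun a b h =>
              Subtype.ext (congrArg (fun x : PX r φ N n => x.1.2) h)
      have e : MulAction.fixedBy (PX r φ N n) z ≃ Σ c : Z, {M : Multiset L //
          (M.card = n ∧ ∀ y ∈ M, y ^ r = φ c) ∧ M.map (φ (c ^ (N / r)) * ·) = M ∧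
          M.map (φ z * ·) = M} :=
        { toFun := fun p => ⟨p.1.1.1, p.1.1.2, p.1.2.1, p.1.2.2,
            congrArg (fun x : PX r φ N n => x.1.2) p.2⟩
          invFun := fun p => ⟨⟨(p.1, p.2.1), p.2.2.1, p.2.2.2.1⟩, Subtype.ext (Prod.ext
            (by change z ^ r * _ = _; rw [hz, one_mul]) p.2.2.2.2)⟩
          left_inv := fun _ => rfl
          right_inv := fun _ => rfl }
      rw [← Nat.card_eq_fintype_card, Nat.card_congr e, Nat.card_sigma]
      refine Finset.sum_congr rfl fun c _ => ?_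
      obtain ⟨w, hw⟩ := IsAlgClosed.exists_pow_nat_eq (φ c) hr.out.pos
      have hw0 : w ≠ 0 := by
        rintro rfl
        exact ((Group.isUnit c).map φ).ne_zero (by rw [← hw, zero_pow hr.out.ne_zero])
      simp only [← hw]
      rw [card_multiset_two hζ hw0 (by
        rw [← map_pow, ← pow_mul, Nat.div_mul_cancel hrN, ← hN, pow_card_eq_one', map_one])
        (by rw [← map_pow, hz, map_one])]
      simp only [map_eq_one_iff φ hφ]
    · rw [if_neg hz, Fintype.card_eq_zero_iff]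
      exact ⟨fun p => hz (mul_eq_right.1 (congrArg (fun x : PX r φ N n => x.1.1) p.2))⟩
  obtain ⟨k, hk⟩ := hrN
  have hk' : N / r = k := by rw [hk, Nat.mul_div_cancel_left _ hr.out.pos]
  have hc : ∀ d, d ∣ N → (Finset.univ.filter fun z : Z => z ^ d = 1).card = d := fun d hd => by
    rw [← Fintype.card_subtype, ← Nat.card_eq_fintype_card]
    exact (IsCyclic.card_powMonoidHom_ker (G := Z) d).trans (by rw [hN, Nat.gcd_eq_right hd])
  have hZ : Fintype.card Z = r * k := by rw [← Nat.card_eq_fintype_card, hN, hk]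
  have hk0 : 0 < k := Nat.pos_of_mul_pos_left (hZ ▸ Fintype.card_pos)
  generalize (n + r - 1).choose (r - 1) = C at *
  generalize (if r ∣ n then 1 else 0) = ε at *
  rw [Finset.sum_congr rfl fun z _ => h2 z, ← Finset.sum_filter,
    ← Finset.add_sum_erase _ _ (a := 1) (by simp), Finset.sum_congr (s₁ := Finset.erase _ _) rfl
      (g := fun _ => r * k * ε)
      fun z hz => by simp [(Finset.mem_erase.1 hz).1, hZ], Finset.sum_const,
    Finset.card_erase_of_mem (by simp), hc r ⟨k, hk⟩, hk', hZ, ← Nat.card_eq_fintype_card] at h1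
  simp only [and_true, Finset.sum_ite, Finset.sum_const, smul_eq_mul] at h1
  have h3 := Finset.card_filter_add_card_filter_not (s := Finset.univ) fun z : Z => z ^ k = 1
  rw [hc k ⟨r, by rw [hk, mul_comm]⟩, Finset.card_univ, hZ] at h3
  rw [hc k ⟨r, by rw [hk, mul_comm]⟩, Nat.eq_sub_of_add_eq' h3] at h1
  have h4 := hr.out.pos
  apply Nat.eq_of_mul_eq_mul_left hk0
  zify [h4, Nat.one_le_pow 2 r h4, Nat.le_mul_of_pos_left k h4] at h1 ⊢
  linear_combination -h1

omit hζ in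
theorem card_classes_proj {F V : Type*} [Field F] [AddCommGroup V] [Module F V]
    [FiniteDimensional F V] (L : Type*) [Field L] [IsAlgClosed L] [Algebra F L]
    {G : Type*} [Group G] [Finite G] (ρ : G →* End F V) (hρ : Function.Injective ρ)
    (hconj : ∀ g h, IsConj g h ↔ Sim (ρ g) (ρ h)) (Z : Subgroup Fˣ) [Finite Z]
    (hN : Nat.card Z = N) (hN0 : (N : F) ≠ 0) (hrN : r ∣ N) (hn : finrank F V = n) (hn0 : 0 < n)
    (hZ : ∀ g, g ∈ Subgroup.center G ↔ ∃ z ∈ Z, ρ g = algebraMap F _ (z : F))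
    (hZ' : ∀ z ∈ Z, ∃ g, ρ g = algebraMap F _ (z : F))
    (hR : ∀ c ∈ Z, ∀ M : Multiset L, M.card = n → (∀ z ∈ M, z ^ r = algebraMap F L c) →
      ((∃ g, ρ g ^ r = algebraMap F _ (c : F) ∧ ev L (ρ g) = M) ↔
        M.map (algebraMap F L (c ^ (N / r)) * ·) = M)) :
    Nat.card {C : ConjClasses (G ⧸ Subgroup.center G) // ∃ g, ConjClasses.mk g = C ∧ orderOf g = r} =
      (Nat.choose (n + r - 1) (r - 1) - r - (if r ∣ n then 1 else 0)) / r +
        r * (if r ∣ n then 1 else 0) := by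
  have h0 : (r : F) ≠ 0 := fun h => hN0 (by obtain ⟨k, rfl⟩ := hrN; simp [h])
  have : NeZero (r : L) := ⟨by
    rw [← map_natCast (algebraMap F _)]; exact (_root_.map_ne_zero _).2 h0⟩
  obtain ⟨ζ, hζ⟩ := HasEnoughRootsOfUnity.exists_primitiveRoot L r
  let φ : Z →* L := (algebraMap F L).toMonoidHom.comp ((Units.coeHom F).comp Z.subtype)
  have hφ : Function.Injective φ :=
    (algebraMap F L).injective.comp (Units.val_injective.comp Subtype.val_injective)
  have hex : ∀ p : PX r φ N n, ∃ g, ρ g ^ r = algebraMap F _ (p.1.1.1 : F) ∧ ev L (ρ g) = p.1.2 :=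
    fun p => (hR _ p.1.1.2 _ p.2.1.1 p.2.1.2).2 p.2.2
  choose f hf1 hf2 using hex
  have : Nontrivial V := Module.nontrivial_of_finrank_pos (hn ▸ hn0)
  have hinj : Function.Injective (algebraMap F (End F V)) := (algebraMap F _).injective
  have : Finite (PX r φ N n) := Finite.of_injective f fun a b h => Subtype.ext (Prod.ext
    (Subtype.ext (Units.ext (hinj (by rw [← hf1, ← hf1, h])))) (by rw [← hf2, ← hf2, h]))
  have hpow : ∀ z : Z, z ^ N = 1 := fun z => hN ▸ pow_card_eq_one'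
  have hss : ∀ {g : G} {c : Z}, ρ g ^ r = algebraMap F _ (c.1 : F) → ρ g ^ (r * N) = 1 := by
    intro g c h
    rw [pow_mul, h, ← map_pow, ← Units.val_pow_eq_pow_val, ← Subgroup.coe_pow, hpow]
    simp
  have hrN0 : ((r * N : ℕ) : F) ≠ 0 := by rw [Nat.cast_mul]; exact mul_ne_zero h0 hN0
  have key : ∀ {g h : G} {c c' : Z}, ρ g ^ r = algebraMap F _ (c.1 : F) →
      ρ h ^ r = algebraMap F _ (c'.1 : F) →
      (IsConj (QuotientGroup.mk g : G ⧸ Subgroup.center G) (QuotientGroup.mk h) ↔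
        ∃ z : Z, z ^ r * c' = c ∧ (ev L (ρ h)).map (φ z * ·) = ev L (ρ g)) := by
    intro g h c c' hg hh
    have k1 : ∀ (z : Z) (s : G), ρ s = algebraMap F _ (z.1 : F) →
        ρ (s * h) ^ r = algebraMap F _ ((z ^ r * c').1 : F) ∧
          ev L (ρ (s * h)) = (ev L (ρ h)).map (φ z * ·) := fun z s hs => by
      rw [map_mul, hs, ← Algebra.smul_def, ev_smul L hrN0 (hss hh), _root_.smul_pow, hh,
        Algebra.smul_def, ← map_mul]
      exact ⟨rfl, rfl⟩
    constructor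
    · intro H
      obtain ⟨k, hk⟩ := isConj_iff.1 H
      obtain ⟨k, rfl⟩ := QuotientGroup.mk_surjective k
      have h1 : h⁻¹ * (k * g * k⁻¹) ∈ Subgroup.center G := QuotientGroup.eq.1 hk.symm
      obtain ⟨z, hz, hz'⟩ := (hZ _).1 h1
      obtain ⟨k2, k3⟩ := k1 ⟨z, hz⟩ _ hz'
      rw [← Subgroup.mem_center_iff.1 h1, mul_inv_cancel_left] at k2 k3
      have h2 : Sim (ρ g) (ρ (k * g * k⁻¹)) := (hconj _ _).1 (isConj_iff.2 ⟨k, rfl⟩)
      refine ⟨⟨z, hz⟩, Subtype.ext (Units.ext (hinj ?_)), by rw [← k3, h2.ev L]⟩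
      rw [← k2, ← map_pow, conj_pow, map_mul, map_mul, map_pow, hg, ← Algebra.commutes, mul_assoc,
        ← map_mul, mul_inv_cancel, map_one, mul_one]
    · rintro ⟨z, rfl, hz⟩
      obtain ⟨s, hs⟩ := hZ' z z.2
      obtain ⟨k2, k3⟩ := k1 z s hs
      have h1 := (hconj _ _).2 (sim_of_ev L (squarefree_X_pow_sub_one hrN0)
        (squarefree_X_pow_sub_one hrN0) (aeval_of_pow (hss hg)) (aeval_of_pow (hss k2))
        (hz.symm.trans k3.symm))
      have h2 := (QuotientGroup.mk' (Subgroup.center G)).map_isConj h1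
      rwa [map_mul, QuotientGroup.mk'_apply, QuotientGroup.mk'_apply,
        (QuotientGroup.eq_one_iff s).2 ((hZ s).2 ⟨z, z.2, hs⟩), one_mul] at h2
  letI := actPX φ n hpow hrN
  have h1 := card_orbits_PX hζ φ n hφ hN hrN
  rw [card_quot_eq (MulAction.orbitRel Z (PX r φ N n))
    (fun p => ConjClasses.mk (QuotientGroup.mk (f p) : G ⧸ Subgroup.center G)) (fun a b => by
      rw [ConjClasses.mk_eq_mk_iff_isConj, key (hf1 a) (hf1 b), hf2, hf2]
      exact exists_congr fun z => ⟨fun h => Subtype.ext (Prod.ext h.1 h.2), fun h =>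
        ⟨congrArg (fun x : PX r φ N n => x.1.1) h, congrArg (fun x : PX r φ N n => x.1.2) h⟩⟩)
    (fun C => ∃ g, ConjClasses.mk g = C ∧ g ^ r = 1) (fun C => ⟨?_, ?_⟩)] at h1
  · rw [card_classes_order]
    generalize Nat.card {C : ConjClasses (G ⧸ Subgroup.center G) //
      ∃ g, ConjClasses.mk g = C ∧ g ^ r = 1} = o at h1 ⊢
    have h2 := hr.out.two_le
    have h3 : 2 ≤ (n + r - 1).choose (r - 1) := by
      obtain ⟨a, rfl⟩ : ∃ a, r = a + 2 := ⟨r - 2, by omega⟩
      obtain ⟨b, rfl⟩ : ∃ b, n = b + 1 := ⟨n - 1, by omega⟩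
      rw [show b + 1 + (a + 2) - 1 = (a + b + 1) + 1 by omega, show a + 2 - 1 = a + 1 by omega,
        Nat.choose_succ_succ']
      have := Nat.choose_pos (n := a + b + 1) (k := a) (by omega)
      have := Nat.choose_pos (n := a + b + 1) (k := a + 1) (by omega)
      omega
    generalize (n + r - 1).choose (r - 1) = C at *
    split_ifs at h1 ⊢
    · have h4 : 1 ≤ r ^ 2 := Nat.one_le_pow _ _ (by omega)
      have h5 : r < o := Nat.lt_of_mul_lt_mul_left (a := r) (by rw [← pow_two]; omega)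
      obtain ⟨o, rfl⟩ := Nat.exists_eq_add_of_lt h5
      have : C - r - 1 = r * o := by
        rw [mul_add, mul_add, ← pow_two] at h1; omega
      rw [this, Nat.mul_div_cancel_left _ (by omega)]; omega
    · rw [mul_zero, add_zero] at h1
      rw [← h1, Nat.sub_zero, mul_zero, add_zero, ← Nat.mul_sub_one,
        Nat.mul_div_cancel_left _ (by omega)]
  · rintro ⟨x, rfl, hx⟩
    obtain ⟨g, rfl⟩ := QuotientGroup.mk_surjective x
    obtain ⟨c, hc, hc'⟩ := (hZ _).1 ((QuotientGroup.eq_one_iff (g ^ r)).1 hx)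
    rw [map_pow] at hc'
    have h2 := (card_ev L (ρ g)).trans hn
    have h3 : ∀ z ∈ ev L (ρ g), z ^ r = algebraMap F L c := fun z hz => pow_eq_of_mem_ev L hc' hz
    refine ⟨⟨(⟨c, hc⟩, ev L (ρ g)), ⟨h2, h3⟩, (hR c hc _ h2 h3).1 ⟨g, hc', rfl⟩⟩,
      ConjClasses.mk_eq_mk_iff_isConj.2 ((key (hf1 _) (c' := ⟨c, hc⟩) hc').2 ⟨1, by simp, ?_⟩)⟩
    rw [hf2]; simp
  · rintro ⟨p, rfl⟩
    exact ⟨_, rfl, (QuotientGroup.eq_one_iff (f p ^ r)).2 ((hZ _).2
      ⟨_, p.1.1.2, by rw [map_pow, hf1]⟩)⟩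

omit hζ in
theorem card_classes_PGL {F : Type*} [Field F] [Fintype F] (hn : 0 < n)
    (hrq : r ∣ Fintype.card F - 1) :
    Nat.card {C : ConjClasses (GL (Fin n) F ⧸ Subgroup.center (GL (Fin n) F)) //
      ∃ g, ConjClasses.mk g = C ∧ orderOf g = r} =
      (Nat.choose (n + r - 1) (r - 1) - r - (if r ∣ n then 1 else 0)) / r +
        r * (if r ∣ n then 1 else 0) := by
  have hq := Fintype.one_lt_card (α := F)
  refine card_classes_proj n (AlgebraicClosure F) (glRep (Fin n) F)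
    (fun a b h => Units.ext (Matrix.toLin'.injective h)) (fun g h => isConj_GL_iff_sim) ⊤
    (N := Fintype.card F - 1) (by simp [Fintype.card_units]) (by simp [Nat.cast_sub hq.le]) hrq (finrank_fin_fun F) hn
    (fun g => ?_) (fun z _ => ⟨Matrix.GeneralLinearGroup.scalar _ z, ?_⟩) fun c _ M h1 h2 => ?_
  · rw [Matrix.GeneralLinearGroup.center_eq_range_scalar]
    refine exists_congr fun z => ?_
    rw [Units.ext_iff, ← Matrix.toLinAlgEquiv'.injective.eq_iff, eq_comm]
    simp only [Subgroup.mem_top, true_and]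
    exact Iff.of_eq (congrArg _ (Matrix.toLinAlgEquiv'.commutes _))
  · exact Matrix.toLinAlgEquiv'.commutes _
  · have h3 : M.map (algebraMap F _ (c ^ ((Fintype.card F - 1) / r)) * ·) =
        M.map (· ^ Fintype.card F) := Multiset.map_congr rfl fun z hz => by
      rw [map_pow, ← h2 z hz, ← pow_mul, Nat.mul_div_cancel' hrq, ← pow_succ,
        Nat.sub_add_cancel hq.le]
    rw [h3]
    constructor
    · rintro ⟨g, -, rfl⟩
      obtain ⟨ψ, hψ⟩ := exists_frob_hom (F := F) (AlgebraicClosure F)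
      rw [← funext hψ]
      exact ev_map_self _ _ ψ fun a => by rw [hψ, ← map_pow, FiniteField.pow_card]
    · intro h
      obtain ⟨A, hA, hA'⟩ := exists_of_multiset _ M h (s := X ^ r - C (c : F)) (ι := Fin n)
        (fun z hz => by simp [h2 z hz]) (by simpa using h1)
      simp only [map_sub, map_pow, aeval_X, aeval_C, sub_eq_zero] at hA
      have hu : IsUnit A := (isUnit_pow_iff hr.out.ne_zero).1 (hA ▸ c.isUnit.map _)
      refine ⟨hu.unit, ?_, hA'⟩
      rw [← map_pow]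
      exact (congrArg Matrix.toLinAlgEquiv' hA).trans (Matrix.toLinAlgEquiv'.commutes _)

end Cfsg.Agent.Conj
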